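import Cfsg.Agent.H8.FeitHigmanTrig

/-!
# Rational Schur elements force gonality 2, 3, 4, 6 or 8
-/

set_option autoImplicit false

namespace Cfsg.Agent.H8.FH

open Real Polynomial

theorem quad_root_transfer {X p₁ p₀ : ℝ} (hX : Irrational X) (hp₁ : ∃ a : ℚ, p₁ = a)
    (hp₀ : ∃ a : ℚ, p₀ = a) (h : X ^ 2 + p₁ * X + p₀ = 0) (P : ℚ[X])
    (hP : aeval X P = 0) : aeval (-p₁ - X) P = 0 := by
  obtain ⟨a, rfl⟩ := hp₁
  obtain ⟨b, rfl⟩ := hp₀
  set Qd : ℚ[X] := Polynomial.X ^ 2 + C a * Polynomial.X + C b with hQdef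
  have hmon : Qd.Monic := by rw [hQdef]; monicity!
  have hdeg : Qd.natDegree = 2 := by rw [hQdef]; compute_degree!
  have heval : ∀ Y : ℝ, aeval Y Qd = Y ^ 2 + a * Y + b := fun Y => by simp [hQdef]
  have hdec := modByMonic_add_div P Qd
  have hRdeg : (P %ₘ Qd).natDegree < 2 := by
    have h1 : Qd ≠ 1 := fun h1 => by rw [h1] at hdeg; simp at hdeg
    simpa [hdeg] using natDegree_modByMonic_lt P hmon h1
  have hR := as_sum_range_C_mul_X_pow' (P %ₘ Qd) hRdeg
  simp [Finset.sum_range_succ] at hR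
  have h0 : aeval X (P %ₘ Qd) = 0 := by
    have := congrArg (aeval X) hdec
    rw [map_add, map_mul, heval, h, zero_mul, add_zero, hP] at this
    exact this
  rw [hR] at h0
  simp at h0
  have h1 : (P %ₘ Qd).coeff 1 = 0 := by
    by_contra h1
    refine hX ⟨-(P %ₘ Qd).coeff 0 / (P %ₘ Qd).coeff 1, ?_⟩
    push_cast
    rw [div_eq_iff (by exact_mod_cast h1)]
    linarith
  have h2 : (P %ₘ Qd).coeff 0 = 0 := by
    rw [h1] at h0
    exact_mod_cast (by simpa using h0 : (((P %ₘ Qd).coeff 0 : ℚ) : ℝ) = 0)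
  have := congrArg (aeval (-(a : ℝ) - X)) hdec
  rw [hR, h1, h2] at this
  simp [heval] at this
  rw [← this, show (-(a : ℝ) - X) ^ 2 + a * (-a - X) + b = X ^ 2 + a * X + b by ring, h, zero_mul]

theorem mem_of_cos_rat {m : ℕ} (hm : 2 ≤ m) (h : ∃ a : ℚ, cos (2 * π / m) = a) :
    m = 2 ∨ m = 3 ∨ m = 4 ∨ m = 6 := by
  have hm0 : (m : ℚ) ≠ 0 := Nat.cast_ne_zero.2 (by omega)
  have hle : (2 / m : ℚ) ≤ 1 := by
    rw [div_le_one (by positivity)]
    exact_mod_cast hm
  have he : ((2 / m : ℚ) : ℝ) * π = 2 * π / m := by push_cast; ring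
  have h1 := niven_angle_div_pi_eq (r := 2 / m) (by rw [he]; exact h) ⟨by positivity, hle⟩
  simp only [Set.mem_insert_iff, Set.mem_singleton_iff] at h1
  rcases h1 with h1 | h1 | h1 | h1 | h1
  · simp [hm0] at h1
  all_goals
    field_simp at h1
  · right; right; right; exact_mod_cast (by linarith : (m : ℚ) = 6)
  · right; right; left; exact_mod_cast (by linarith : (m : ℚ) = 4)
  · right; left; exact_mod_cast (by linarith : (m : ℚ) = 3)
  · left; exact_mod_cast (by linarith : (m : ℚ) = 2)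

/-- `R X = (q + r + 2X)(qr + 1 - 2X) / (qr - X²)` takes a rational value at each eigenvalue. -/
theorem even_bound {m : ℕ} (hm : 2 ≤ m) {q r : ℕ} (hq : 2 ≤ q) (hr : 2 ≤ r)
    (H : ∀ x y, IsEigen (2 * m) (q : ℝ) r x y → ∃ a : ℚ, schur (2 * m) (q : ℝ) r y = a) :
    m = 2 ∨ m = 3 ∨ m = 4 := by
  have hq' : (2 : ℝ) ≤ q := by exact_mod_cast hq
  have hr' : (2 : ℝ) ≤ r := by exact_mod_cast hr
  set k := √((q : ℝ) * r) with hkdef
  have hk2 : k ^ 2 = (q : ℝ) * r := Real.sq_sqrt (by positivity)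
  have hk0 : 0 < k := Real.sqrt_pos.2 (by positivity)
  have hm0 : (0 : ℝ) < m := by exact_mod_cast (by omega : 0 < m)
  have hrat : ∀ θ : ℝ, sin θ ≠ 0 → sin (m * θ) = 0 → ∃ C : ℚ,
      ((q : ℝ) + r + 2 * (k * cos θ)) * (q * r + 1 - 2 * (k * cos θ))
        = C * (q * r - (k * cos θ) ^ 2) := by
    intro θ hs hsm
    obtain ⟨x, y, he, hS⟩ := even_eigen (q := (q : ℝ)) (r := (r : ℝ)) (by linarith) (by linarith)
      (by omega) hs hsm
    obtain ⟨a, ha⟩ := H x y he
    refine ⟨2 * a / m, ?_⟩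
    rw [ha, sin_sq] at hS
    rw [mul_pow, hk2]
    field_simp at hS
    push_cast
    field_simp
    linear_combination -hS
  have hstep : (∃ C : ℚ, ((q : ℝ) + r + 2 * (k * cos (π / m))) * (q * r + 1 - 2 * (k * cos (π / m)))
      = C * (q * r - (k * cos (π / m)) ^ 2)) → ∃ a : ℚ, k * cos (π / m) = a := by
    rintro ⟨C, hC⟩
    set X := k * cos (π / m) with hXdef
    by_contra hne
    have hX : Irrational X := fun ⟨a, ha⟩ => hne ⟨a, ha.symm⟩
    have hπm : π / m ≤ π / 2 := by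
      apply div_le_div_of_nonneg_left pi_pos.le two_pos
      exact_mod_cast hm
    have hc0 : 0 ≤ cos (π / m) :=
      cos_nonneg_of_neg_pi_div_two_le_of_le
        (by linarith [pi_pos, show 0 < π / m by positivity]) hπm
    have hX0 : 0 ≤ X := mul_nonneg hk0.le hc0
    have hs : 0 < sin (π / m) :=
      sin_pos_of_pos_of_lt_pi (by positivity) (by linarith [pi_pos])
    have hXk : X ^ 2 < q * r := by
      rw [hXdef, mul_pow, hk2, cos_sq']
      have : 0 < sin (π / m) ^ 2 := by positivity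
      have : 0 < (q : ℝ) * r := by positivity
      nlinarith
    have hab : 4 * ((q : ℝ) * r) < (q + r) * (q * r + 1) := by nlinarith
    have hba : 0 < ((q : ℝ) - 1) * (r - 1) := by nlinarith
    have hC4 : 4 < (C : ℝ) := by
      by_contra hle
      push Not at hle
      nlinarith [mul_le_mul_of_nonneg_right hle (sub_nonneg.2 hXk.le)]
    set p₁ : ℝ := 2 * (((q : ℝ) - 1) * (r - 1)) / (C - 4) with hp₁
    set p₀ : ℝ := (((q : ℝ) + r) * (q * r + 1) - C * (q * r)) / (C - 4) with hp₀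
    have hquad : ∀ Y : ℝ, Y ^ 2 + p₁ * Y + p₀ = 0 ↔
        ((q : ℝ) + r + 2 * Y) * (q * r + 1 - 2 * Y) = C * (q * r - Y ^ 2) := fun Y => by
      have h4 : (C : ℝ) - 4 ≠ 0 := by linarith
      rw [hp₁, hp₀]
      field_simp
      constructor <;> intro h <;> linarith
    have hX' : (-p₁ - X) ^ 2 + p₁ * (-p₁ - X) + p₀ = 0 := by
      have := (hquad X).2 hC
      linear_combination this
    have hP := quad_root_transfer hX
      ⟨2 * (((q : ℚ) - 1) * (r - 1)) / (C - 4), by rw [hp₁]; push_cast; ring⟩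
      ⟨(((q : ℚ) + r) * (q * r + 1) - C * (q * r)) / (C - 4), by rw [hp₀]; push_cast; ring⟩
      ((hquad X).2 hC)
      ((Chebyshev.T ℚ m).comp (Polynomial.C (2 / ((q : ℚ) * r)) * Polynomial.X ^ 2 - 1) - 1) ?_
    · simp only [map_sub, map_one, aeval_comp, map_mul, aeval_C, aeval_X_pow,
        Chebyshev.aeval_T, sub_eq_zero, eq_ratCast] at hP
      rw [Chebyshev.eval_T_real_eq_one_iff (by omega)] at hP
      obtain ⟨j, hj, hjeven, hj'⟩ := hP
      push_cast at hj'
      set X' := -p₁ - X with hX'def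
      have hlt : X' < -X := by
        rw [hX'def]
        have : 0 < p₁ := by rw [hp₁]; exact div_pos (by linarith) (by linarith)
        linarith
      rcases Nat.eq_zero_or_pos j with rfl | hjpos
      · simp at hj'
        have hsq : X' ^ 2 = q * r := by
          field_simp at hj'
          linarith
        have h1 := (hquad X').1 hX'
        rw [hsq, sub_self, mul_zero] at h1
        rcases mul_eq_zero.1 h1 with h2 | h2
        · exact hne ⟨-(2 * (((q : ℚ) - 1) * (r - 1)) / (C - 4)) + ((q : ℚ) + r) / 2, by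
            push_cast; rw [← hp₁]; linarith [hX'def]⟩
        · exact hne ⟨-(2 * (((q : ℚ) - 1) * (r - 1)) / (C - 4)) - ((q : ℚ) * r + 1) / 2, by
            push_cast; rw [← hp₁]; linarith [hX'def]⟩
      · have hj2 : 2 ≤ j := by
          obtain ⟨i, rfl⟩ := hjeven
          omega
        have hle : cos ((j : ℝ) * π / m) ≤ cos (2 * (π / m)) := by
          apply cos_le_cos_of_nonneg_of_le_pi (by positivity)
          · rw [div_le_iff₀ hm0]
            have : (j : ℝ) ≤ m := by exact_mod_cast hj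
            nlinarith [pi_pos]
          · rw [← mul_div_assoc]
            gcongr
            exact_mod_cast hj2
        have hXX : X ^ 2 = q * r * cos (π / m) ^ 2 := by rw [hXdef, mul_pow, hk2]
        rw [cos_two_mul] at hle
        have hX'le : X' ^ 2 ≤ X ^ 2 := by
          rw [← hj'] at hle
          field_simp at hle
          nlinarith
        nlinarith
    · simp only [map_sub, map_one, aeval_comp, map_mul, aeval_C, aeval_X_pow,
        Chebyshev.aeval_T, sub_eq_zero, eq_ratCast]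
      rw [hXdef, mul_pow, hk2]
      push_cast
      rw [show 2 / ((q : ℝ) * r) * (q * r * cos (π / m) ^ 2) - 1 = cos (2 * (π / m)) by
        rw [cos_two_mul]; field_simp, Chebyshev.T_real_cos]
      push_cast
      rw [show (m : ℝ) * (2 * (π / m)) = 2 * π by field_simp, cos_two_pi]
  have hs1 : sin (π / m) ≠ 0 :=
    (sin_pos_of_pos_of_lt_pi (by positivity)
      (div_lt_self pi_pos (by exact_mod_cast hm))).ne'
  obtain ⟨a, ha⟩ := hstep (hrat (π / m) hs1 (by
    rw [show (m : ℝ) * (π / m) = π by field_simp, sin_pi]))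
  have hcos : ∃ b : ℚ, cos (2 * π / m) = b := by
    refine ⟨2 * (a ^ 2 / (q * r)) - 1, ?_⟩
    push_cast
    rw [← ha, mul_pow, hk2, show 2 * π / (m : ℝ) = 2 * (π / m) by ring, cos_two_mul]
    field_simp
  rcases mem_of_cos_rat hm hcos with h | h | h | h
  · exact Or.inl h
  · exact Or.inr (Or.inl h)
  · exact Or.inr (Or.inr h)
  · exfalso
    subst h
    have hs3 : sin (π / 3) ≠ 0 := by rw [sin_pi_div_three]; positivity
    obtain ⟨C, hC⟩ := hrat (π / 3) hs3 (by
      push_cast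
      rw [show (6 : ℝ) * (π / 3) = 2 * π by ring, sin_two_pi])
    rw [cos_pi_div_three] at hC
    push_cast at ha
    rw [cos_pi_div_six] at ha
    -- `k` is rational by `hC`, and `k √3` is rational by `ha`
    have hk : k = ((C : ℝ) * (3 * (q * r) / 4) - ((q + r) * (q * r + 1) - q * r))
        / ((q - 1) * (r - 1)) := by
      have : ((q : ℝ) - 1) * (r - 1) ≠ 0 := by
        apply ne_of_gt; nlinarith
      rw [eq_div_iff this]
      linear_combination hC - (1 - (C : ℝ) / 4) * (-1) * hk2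
    have h3 : ∃ b : ℚ, √3 = b := by
      refine ⟨2 * a / ((C * (3 * (q * r) / 4) - ((q + r) * (q * r + 1) - q * r))
        / ((q - 1) * (r - 1))), ?_⟩
      push_cast
      rw [← hk, ← ha]
      field_simp
    obtain ⟨b, hb⟩ := h3
    exact (Nat.Prime.irrational_sqrt Nat.prime_three) ⟨b, by rw [← hb]; norm_num⟩

theorem odd_bound {m : ℕ} (hm : 1 ≤ m) {q : ℕ} (hq : 2 ≤ q)
    (H : ∀ x y, IsEigen (2 * m + 1) (q : ℝ) q x y → ∃ a : ℚ, schur (2 * m + 1) (q : ℝ) q y = a) :
    m = 1 := by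
  have hq' : (2 : ℝ) ≤ q := by exact_mod_cast hq
  obtain ⟨x, y, he, hS⟩ := odd_eigen (q := (q : ℝ)) (by linarith) hm
  obtain ⟨a, ha⟩ := H x y he
  have hcos : ∃ b : ℚ, cos (2 * π / ((2 * m + 1 : ℕ) : ℝ)) = b := by
    refine ⟨((2 * m + 1) / (4 * q) * ((q + 1) ^ 2 + (q - 1) ^ 2) - a) /
      ((2 * m + 1) / (4 * q) * ((q + 1) ^ 2 - (q - 1) ^ 2) - a), ?_⟩
    rw [ha] at hS
    push_cast
    have hden : (2 * (m : ℝ) + 1) / (4 * q) * ((q + 1) ^ 2 - (q - 1) ^ 2) - a ≠ 0 := by
      intro hd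
      have h0 : (2 * (m : ℝ) + 1) / (4 * q) * ((q + 1) ^ 2 + (q - 1) ^ 2) - a = 0 := by
        linear_combination -hS + cos (2 * π / (2 * m + 1)) * hd
      have h1 : 0 < (2 * (m : ℝ) + 1) / (4 * q) * ((q : ℝ) - 1) ^ 2 := by
        have : (0 : ℝ) < (q : ℝ) - 1 := by linarith
        positivity
      linarith
    rw [eq_div_iff hden]
    linear_combination hS
  rcases mem_of_cos_rat (m := 2 * m + 1) (by omega) hcos with h | h | h | h <;> omega

theorem gonality_bound {n q r : ℕ} (hn : 2 ≤ n) (hq : 2 ≤ q) (hr : 2 ≤ r) (hodd : Odd n → q = r)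
    (H : ∀ x y, IsEigen n (q : ℝ) r x y → ∃ a : ℚ, schur n (q : ℝ) r y = a) :
    n = 2 ∨ n = 3 ∨ n = 4 ∨ n = 6 ∨ n = 8 := by
  rcases Nat.even_or_odd' n with ⟨m, rfl | rfl⟩
  · by_cases hm : m = 1
    · omega
    · rcases even_bound (by omega) hq hr H with h | h | h <;> omega
  · obtain rfl := hodd ⟨m, rfl⟩
    have := odd_bound (by omega) hq H
    omega

end Cfsg.Agent.H8.FH
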