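import Cfsg.Agent.H8.BNRankTwo
import Cfsg.Agent.H8.FeitHigmanArith

/-!
# The Feit–Higman theorem for rank two (B, N)-pairs
-/

set_option autoImplicit false

namespace Cfsg.Agent.H8.FH

open Cfsg DoubleCoset
open Cfsg.Agent.H8 (BN.cell)
open Cfsg.Agent.H8.Cox (alt)
open Cfsg.Agent.H8.BN

variable {G : Type*} [Group G] {P : BNPair G} {s t : G}

open scoped Classical in
/-- The fewest `t`'s in a word whose double coset contains `g`. -/
noncomputable def idx (P : BNPair G) (t g : G) : ℕ :=
  sInf {c | ∃ l : List G, (∀ x ∈ l, x ∈ P.S) ∧ g ∈ cell P l.prod ∧ l.count t = c}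

open scoped Classical in
theorem idx_spec (t g : G) :
    ∃ l : List G, (∀ x ∈ l, x ∈ P.S) ∧ g ∈ cell P l.prod ∧ l.count t = idx P t g := by
  have hne : {c | ∃ l : List G, (∀ x ∈ l, x ∈ P.S) ∧ g ∈ cell P l.prod ∧ l.count t = c}.Nonempty := by
    obtain ⟨l, hl, hg⟩ := exists_mem_cell (P := P) g
    exact ⟨_, l, hl, hg, rfl⟩
  exact Nat.sInf_mem hne

open scoped Classical in
theorem idx_le {g : G} {l : List G} (hl : ∀ x ∈ l, x ∈ P.S) (hg : g ∈ cell P l.prod) :
    idx P t g ≤ l.count t :=
  Nat.sInf_le ⟨l, hl, hg, rfl⟩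

theorem idx_B_left {b : G} (hb : b ∈ P.B) (g : G) : idx P t (b * g) = idx P t g := by
  classical
  have key : ∀ c ∈ P.B, ∀ x, idx P t (c * x) ≤ idx P t x := fun c hc x => by
    obtain ⟨l, hl, hx, hcount⟩ := idx_spec (P := P) t x
    exact hcount ▸ idx_le hl (mul_mem_cell_left hx hc)
  refine le_antisymm (key b hb g) ?_
  simpa using key b⁻¹ (inv_mem hb) (b * g)

theorem idx_B_right {b : G} (hb : b ∈ P.B) (g : G) : idx P t (g * b) = idx P t g := by
  classical
  have key : ∀ c ∈ P.B, ∀ x, idx P t (x * c) ≤ idx P t x := fun c hc x => by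
    obtain ⟨l, hl, hx, hcount⟩ := idx_spec (P := P) t x
    exact hcount ▸ idx_le hl (mul_mem_cell_right hx hc)
  refine le_antisymm (key b hb g) ?_
  simpa using key b⁻¹ (inv_mem hb) (g * b)

theorem idx_inv (g : G) : idx P t g⁻¹ = idx P t g := by
  classical
  have key : ∀ x, idx P t x⁻¹ ≤ idx P t x := fun x => by
    obtain ⟨l, hl, hx, hcount⟩ := idx_spec (P := P) t x
    rw [← hcount, ← List.count_reverse]
    exact idx_le (fun y hy => hl y (List.mem_reverse.1 hy))
      ((cong_inv_prod_reverse l hl).cell_eq ▸ inv_mem_cell_inv hx)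
  exact le_antisymm (key g) (by simpa using key g⁻¹)

theorem idx_s_left (T : TwoGen P s t) (g : G) : idx P t (s * g) = idx P t g := by
  classical
  have key : ∀ x, idx P t (s * x) ≤ idx P t x := fun x => by
    obtain ⟨l, hl, hx, hcount⟩ := idx_spec (P := P) t x
    rw [← hcount]
    rcases axiom_left_set T.mem_left (prod_mem_N hl) (self_mem_cell s) hx with h | h
    · have := idx_le (P := P) (t := t) (l := s :: l) (by simpa [T.mem_left] using hl) (by simpa using h)
      rwa [List.count_cons_of_ne T.ne] at this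
    · exact idx_le hl h
  refine le_antisymm (key g) ?_
  have h := key (s * g)
  rwa [← mul_assoc, idx_B_left (P.sq_mem s T.mem_left)] at h

theorem idx_s_right (T : TwoGen P s t) (g : G) : idx P t (g * s) = idx P t g := by
  rw [← idx_inv (g * s), mul_inv_rev, ← idx_inv g]
  have hsB := P.sq_mem s T.mem_left
  conv_lhs => rw [show s⁻¹ * g⁻¹ = (s * s)⁻¹ * (s * g⁻¹) by group, idx_B_left (inv_mem hsB),
    idx_s_left T]

variable [Fintype G]

/-- Functions constant on the double cosets of `B ∪ B s B`. -/
structure SInv (P : BNPair G) (s : G) (Z : G → ℝ) : Prop extends BInv P Z where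
  s_left : ∀ g, Z (s * g) = Z g
  s_right : ∀ g, Z (g * s) = Z g

/-- The collinearity operator. -/
noncomputable def coll (P : BNPair G) (s t : G) (Z : G → ℝ) : G → ℝ :=
  fun g => act P t Z g + act P s (act P t Z) g

theorem sinv_coll (T : TwoGen P s t) {Z : G → ℝ} (hZ : SInv P s Z) : SInv P s (coll P s t Z) := by
  classical
  have hW : BInv P (act P t Z) := act_binv t hZ.toBInv
  have hW' : BInv P (act P s (act P t Z)) := act_binv s hW
  refine ⟨⟨fun b hb g => by simp only [coll, hW.left b hb, hW'.left b hb],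
    fun b hb g => by simp only [coll, hW.right b hb, hW'.right b hb]⟩, fun g => ?_, fun g => ?_⟩
  · -- averaging over the group `B ∪ B s B`
    set W := act P t Z with hWdef
    have hsum : ∀ x, coll P s t Z x =
        (∑ h : G, if h ∈ P.B ∨ h ∈ cell P s then W (h⁻¹ * x) else 0) / Nat.card P.B := by
      intro x
      have hd : ∀ h : G, (if h ∈ P.B ∨ h ∈ cell P s then W (h⁻¹ * x) else 0) =
          (if h ∈ P.B then W x else 0) + (if h ∈ cell P s then W (h⁻¹ * x) else 0) := by
        intro h
        by_cases hb : h ∈ P.B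
        · have hn : h ∉ cell P s := fun hh => by
            rw [← SetLike.mem_coe, ← cell_one] at hb
            have := cong_of_mem_cell (one_mem _) (P.subset T.mem_left) hb hh
            exact s_not_mem_B T.mem_left (by simpa [Cong] using this)
          rw [if_pos (Or.inl hb), if_pos hb, if_neg hn, hW.left _ (inv_mem hb), add_zero]
        · simp [hb]
      rw [Finset.sum_congr rfl (fun h _ => hd h), Finset.sum_add_distrib, add_div,
        ← Finset.sum_filter, Finset.sum_const, nsmul_eq_mul]
      rw [show ((Finset.univ.filter fun x => x ∈ P.B).card : ℕ) = Nat.card P.B by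
        rw [Nat.card_eq_fintype_card, Fintype.card_subtype]]
      rw [coll, ← hWdef, act, mul_div_cancel_left₀ _ (Nat.cast_ne_zero.2 Nat.card_pos.ne')]
    have hclosed : ∀ h : G, (h ∈ P.B ∨ h ∈ cell P s) → (s * h ∈ P.B ∨ s * h ∈ cell P s) := by
      rintro h (hb | hh)
      · exact Or.inr (mul_mem_cell_right (self_mem_cell s) hb)
      · rcases axiom_left_set T.mem_left (P.subset T.mem_left) (self_mem_cell s) hh with h' | h'
        · rw [← (cong_mul_self T.mem_left).cell_eq, cell_one] at h'
          exact Or.inl h'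
        · exact Or.inr h'
    rw [hsum, hsum]
    congr 1
    rw [← Equiv.sum_comp (Equiv.mulLeft s)]
    refine Finset.sum_congr rfl fun h _ => ?_
    simp only [Equiv.coe_mulLeft]
    have hiff : (s * h ∈ P.B ∨ s * h ∈ cell P s) ↔ (h ∈ P.B ∨ h ∈ cell P s) := by
      refine ⟨fun h' => ?_, hclosed h⟩
      have h'' := hclosed _ h'
      rw [← mul_assoc] at h''
      refine h''.imp (fun hb => ?_) fun hc => ?_
      · exact (Subgroup.mul_mem_cancel_left _ (P.sq_mem s T.mem_left)).1 hb
      · have h3 := mul_mem_cell_left hc (inv_mem (P.sq_mem s T.mem_left))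
        rwa [inv_mul_cancel_left] at h3
    simp [hiff, mul_assoc]
  · simp only [coll, act, ← mul_assoc, hZ.s_right]

theorem coll_conv (s t : G) (Y Z : G → ℝ) :
    coll P s t (conv P Y Z) = conv P (coll P s t Y) Z := by
  funext g
  simp only [coll, act_conv]
  simp only [conv, coll, add_mul, Finset.sum_add_distrib, add_div]

/-- The representative of index `i`. -/
def rep (s t : G) (i : ℕ) : G := (alt t s (2 * i - 1)).prod

theorem sinv_even {Z : G → ℝ} (hZ : SInv P s Z) (i : ℕ) :
    Z (alt t s (2 * i)).prod = Z (rep s t i) := by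
  cases i with
  | zero => rfl
  | succ i =>
    rw [rep, show 2 * (i + 1) - 1 = 2 * i + 1 by omega, show 2 * (i + 1) = 2 * i + 1 + 1 by omega,
      alt_append, List.prod_append, List.prod_singleton,
      if_neg (by simp [Nat.even_add_one]), hZ.s_right]

theorem sinv_alt {Z : G → ℝ} (hZ : SInv P s Z) (d : ℕ) :
    Z (alt t s d).prod = Z (rep s t ((d + 1) / 2)) := by
  rcases Nat.even_or_odd' d with ⟨i, rfl | rfl⟩
  · rw [sinv_even hZ, show (2 * i + 1) / 2 = i by omega]
  · rw [rep, show 2 * ((2 * i + 1 + 1) / 2) - 1 = 2 * i + 1 by omega]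

theorem idx_alt (T : TwoGen P s t) {d : ℕ} (hd : d < gon P s t) :
    idx P t (alt t s d).prod = (d + 1) / 2 := by
  classical
  refine le_antisymm ?_ ?_
  · rw [← (count_alt d s t T.ne).1]
    exact idx_le (alt_word_mem T.mem_left T.mem_right d) (self_mem_cell _)
  · obtain ⟨l, hl, hg, hc⟩ := idx_spec (P := P) t (alt t s d).prod
    have hN := prod_mem_N (alt_word_mem T.mem_left T.mem_right d)
    obtain ⟨d', hd', -, h2, h3⟩ := T.word_exists l hl
    have he := (T.elt_eq_iff d d').1 (by
      rw [← hd', ← (img_alt T.mem_left T.mem_right d).1]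
      exact (cong_iff_img hN (prod_mem_N hl)).1
        (cong_of_mem_cell hN (prod_mem_N hl) (self_mem_cell _) hg))
    rw [hc] at h2 h3
    by_contra hlt
    have h4 := Int.eq_zero_of_abs_lt_dvd he (by rw [abs_lt]; omega)
    omega

theorem idx_alt_top (T : TwoGen P s t) {m : ℕ} (hm : gon P s t = 2 * m + 1) :
    idx P t (alt t s (2 * m + 1)).prod = m := by
  classical
  have hN := prod_mem_N (alt_word_mem T.mem_left T.mem_right (2 * m + 1))
  refine le_antisymm ?_ ?_
  · have h := idx_le (P := P) (t := t) (g := (alt t s (2 * m + 1)).prod)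
      (alt_word_mem T.mem_right T.mem_left (2 * m + 1))
      (by have := T.cong_longest; rw [hm] at this; rw [← this.cell_eq]; exact self_mem_cell _)
    rw [(count_alt (2 * m + 1) s t T.ne).2] at h
    omega
  · obtain ⟨l, hl, hg, hc⟩ := idx_spec (P := P) t (alt t s (2 * m + 1)).prod
    obtain ⟨d', hd', -, h2, h3⟩ := T.word_exists l hl
    have he := (T.elt_eq_iff ((2 * m + 1 : ℕ) : ℤ) d').1 (by
      rw [← hd', ← (img_alt T.mem_left T.mem_right (2 * m + 1)).1]
      exact (cong_iff_img hN (prod_mem_N hl)).1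
        (cong_of_mem_cell hN (prod_mem_N hl) (self_mem_cell _) hg))
    rw [hc] at h2 h3
    by_contra hlt
    rw [hm] at he
    have h4 := Int.eq_zero_of_abs_lt_dvd he (by rw [abs_lt]; push_cast; omega)
    omega

theorem idx_rep (T : TwoGen P s t) {i : ℕ} (hi : i ≤ gon P s t / 2) :
    idx P t (rep s t i) = i := by
  have := T.two_le_gon
  rw [rep, idx_alt T (by omega)]
  omega

/-- Representatives of all double cosets of `B`. -/
def cellRep (s t : G) {n : ℕ} (p : Fin n × Bool) : G :=
  if p.2 then s * (alt t s p.1).prod else (alt t s p.1).prod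

theorem cover (T : TwoGen P s t) (g : G) :
    ∃! p : Fin (gon P s t) × Bool, g ∈ cell P (cellRep s t p) := by
  classical
  set n := gon P s t
  have hn : 2 ≤ n := T.two_le_gon
  obtain ⟨l, hl, hg⟩ := exists_mem_cell (P := P) g
  obtain ⟨d, hd, -⟩ := T.word_exists l hl
  have hmem : ∀ p : Fin n × Bool, cellRep s t p ∈ P.N := fun p => by
    rw [cellRep]
    split_ifs
    · exact mul_mem (P.subset T.mem_left) (prod_mem_N (alt_word_mem T.mem_left T.mem_right _))
    · exact prod_mem_N (alt_word_mem T.mem_left T.mem_right _)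
  have hiff : ∀ p : Fin n × Bool, g ∈ cell P (cellRep s t p) ↔
      2 * (n : ℤ) ∣ (if p.2 then -1 - ((p.1 : ℕ) : ℤ) else ((p.1 : ℕ) : ℤ)) - d := by
    intro p
    have himg : img P (cellRep s t p) = Dihedral.elt (img P s) (img P t)
        (if p.2 then -1 - ((p.1 : ℕ) : ℤ) else ((p.1 : ℕ) : ℤ)) := by
      rw [cellRep]
      split_ifs
      · rw [img_mul (P.subset T.mem_left) (prod_mem_N (alt_word_mem T.mem_left T.mem_right _)),
          (img_alt T.mem_left T.mem_right _).1,
          Dihedral.a_mul_elt (img_sq T.mem_left) (img_sq T.mem_right)]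
      · exact (img_alt T.mem_left T.mem_right _).1
    rw [← T.elt_eq_iff, ← himg, ← hd, ← cong_iff_img (hmem p) (prod_mem_N hl)]
    exact ⟨fun h => cong_of_mem_cell (hmem p) (prod_mem_N hl) h hg, fun h => h.cell_eq ▸ hg⟩
  simp only [hiff]
  have hpos : (0 : ℤ) < 2 * n := by omega
  have h0 := Int.emod_nonneg d hpos.ne'
  have h1 := Int.emod_lt_of_pos d hpos
  have hde : (2 * (n : ℤ)) ∣ d % (2 * n) - d := ⟨-(d / (2 * n)), by rw [Int.emod_def]; ring⟩
  set e := d % (2 * (n : ℤ)) with hedef
  have hex : ∃ p : Fin n × Bool,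
      2 * (n : ℤ) ∣ (if p.2 then -1 - ((p.1 : ℕ) : ℤ) else ((p.1 : ℕ) : ℤ)) - d := by
    by_cases he : e < n
    · exact ⟨(⟨e.toNat, by omega⟩, false), by simp [Int.toNat_of_nonneg h0, hde]⟩
    · refine ⟨(⟨(2 * (n : ℤ) - 1 - e).toNat, by omega⟩, true), ?_⟩
      simp only [if_true]
      rw [Int.toNat_of_nonneg (by omega),
        show -1 - (2 * (n : ℤ) - 1 - e) - d = (e - d) - 2 * n by ring]
      exact dvd_sub hde (dvd_refl _)
  refine existsUnique_of_exists_of_unique hex ?_
  rintro ⟨i, a⟩ ⟨j, b⟩ h h'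
  have hdd := dvd_sub h h'
  rw [sub_sub_sub_cancel_right] at hdd
  have := i.isLt
  have := j.isLt
  cases a <;> cases b <;> simp only [Bool.false_eq_true, if_true, if_false] at hdd
  all_goals
    have h5 := Int.eq_zero_of_abs_lt_dvd hdd (by rw [abs_lt]; omega)
    first
      | (exfalso; omega)
      | (simp only [Prod.mk.injEq, and_true]; ext; omega)

theorem sinv_eq_of_rep (T : TwoGen P s t) {Z Z' : G → ℝ} (hZ : SInv P s Z) (hZ' : SInv P s Z')
    (h : ∀ i ≤ gon P s t / 2, Z (rep s t i) = Z' (rep s t i)) : Z = Z' := by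
  funext g
  obtain ⟨⟨d, e⟩, hp, -⟩ := cover T g
  rw [hZ.eq_of_mem hp, hZ'.eq_of_mem hp, cellRep]
  have hd := d.isLt
  split_ifs
  · rw [hZ.s_left, hZ'.s_left, sinv_alt hZ, sinv_alt hZ', h _ (by omega)]
  · rw [sinv_alt hZ, sinv_alt hZ', h _ (by omega)]

section Formulas

variable (T : TwoGen P s t) {Z : G → ℝ} (hZ : SInv P s Z)
include T hZ

theorem coll_rep_zero : coll P s t Z 1 =
    (degree P t : ℝ) * (degree P s + 1) * Z (rep s t 1) := by
  have hs := T.mem_left
  have ht := T.mem_right
  have hW : BInv P (act P t Z) := act_binv t hZ.toBInv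
  have hts : Adm P t s := by
    have := (T.red_alt (d := 2) T.two_le_gon).adm ht (alt_word_mem ht hs 1)
    simpa [alt] using this
  rw [coll, act_adm hs (one_mem _) (adm_one s) hW, act_adm ht (one_mem _) (adm_one t) hZ.toBInv,
    mul_one, mul_one, act_adm ht (P.subset hs) hts hZ.toBInv, hZ.s_right]
  simp [rep, alt]
  ring

theorem coll_rep {i : ℕ} (h1 : 1 ≤ i) (h2 : i ≤ gon P s t / 2) :
    (i < gon P s t / 2 → coll P s t Z (rep s t i) = Z (rep s t (i - 1))
        + ((degree P t : ℝ) - 1) * Z (rep s t i)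
        + (degree P s : ℝ) * degree P t * Z (rep s t (i + 1))) ∧
    (i = gon P s t / 2 → Even (gon P s t) → coll P s t Z (rep s t i) =
        (1 + (degree P s : ℝ)) * (Z (rep s t (i - 1)) + ((degree P t : ℝ) - 1) * Z (rep s t i))) ∧
    (i = gon P s t / 2 → Odd (gon P s t) → coll P s t Z (rep s t i) = Z (rep s t (i - 1))
        + ((degree P t : ℝ) - 1 + degree P s * degree P t) * Z (rep s t i)) := by
  have hn := T.two_le_gon
  obtain ⟨j, rfl⟩ : ∃ j, i = j + 1 := ⟨i - 1, by omega⟩
  have hs := T.mem_left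
  have ht := T.mem_right
  have hvS : ∀ d, ∀ x ∈ alt t s d, x ∈ P.S := alt_word_mem hs ht
  have hvS' : ∀ d, ∀ x ∈ alt s t d, x ∈ P.S := alt_word_mem ht hs
  have hW : BInv P (act P t Z) := act_binv t hZ.toBInv
  have hv : rep s t (j + 1) = (alt t s (2 * j + 1)).prod := by
    rw [rep, show 2 * (j + 1) - 1 = 2 * j + 1 by omega]
  have hnot : ¬ Adm P t (alt t s (2 * j + 1)).prod :=
    (T.red_alt (d := 2 * j + 1) (by omega)).not_adm_head ht (hvS' (2 * j))
  have htv : Z (t * (alt t s (2 * j + 1)).prod) = Z (rep s t j) := by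
    have hc : Cong P (t * (alt t s (2 * j + 1)).prod) (alt s t (2 * j)).prod := by
      rw [alt, List.prod_cons]
      exact cong_cancel_left ht (prod_mem_N (hvS' _))
    rw [hZ.eq_of_cong hc]
    cases j with
    | zero => rfl
    | succ j =>
      rw [show 2 * (j + 1) = 2 * j + 1 + 1 by omega, alt, List.prod_cons, hZ.s_left, sinv_alt hZ,
        show (2 * j + 1 + 1) / 2 = j + 1 by omega]
  have hadm : Adm P s (alt t s (2 * j + 1)).prod :=
    (T.red_alt' (d := 2 * j + 2) (by omega)).adm hs (hvS _)
  have hbase : coll P s t Z (rep s t (j + 1)) = (Z (rep s t j)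
      + ((degree P t : ℝ) - 1) * Z (rep s t (j + 1)))
      + (degree P s : ℝ) * act P t Z (s * (alt t s (2 * j + 1)).prod) := by
    rw [coll, hv, act_not_adm ht (prod_mem_N (hvS _)) hnot hZ.toBInv, htv,
      act_adm hs (prod_mem_N (hvS _)) hadm hW]
  have hsv : s * (alt t s (2 * j + 1)).prod = (alt s t (2 * j + 2)).prod := rfl
  have hup : 2 * j + 3 ≤ gon P s t → act P t Z (s * (alt t s (2 * j + 1)).prod)
      = (degree P t : ℝ) * Z (alt t s (2 * j + 3)).prod := by
    intro hle
    have ha : Adm P t (alt s t (2 * j + 2)).prod :=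
      (T.red_alt (d := 2 * j + 3) hle).adm ht (hvS' _)
    rw [hsv, act_adm ht (prod_mem_N (hvS' _)) ha hZ.toBInv]
    rfl
  simp only [Nat.add_sub_cancel]
  refine ⟨fun hlt => ?_, fun heq heven => ?_, fun heq hodd => ?_⟩
  · rw [hbase, hup (by omega), sinv_alt hZ (2 * j + 3),
      show (2 * j + 3 + 1) / 2 = j + 1 + 1 by omega]
    ring
  · obtain ⟨m, hm⟩ := heven
    have hgon : gon P s t = 2 * j + 2 := by omega
    have hc : Cong P (alt t s (2 * j + 2)).prod (alt s t (2 * j + 2)).prod := by
      have := T.cong_longest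
      rwa [hgon] at this
    have hna : ¬ Adm P t (alt s t (2 * j + 2)).prod := fun ha =>
      (T.red_alt (d := 2 * j + 2) (by omega)).not_adm_head ht (hvS' _) (ha.congr hc.symm)
    have h3 : Z (t * (alt s t (2 * j + 2)).prod) = Z (rep s t j) := by
      rw [← hZ.eq_of_cong (hc.mul_left t),
        hZ.eq_of_cong (show Cong P (t * (alt t s (2 * j + 2)).prod) (alt s t (2 * j + 1)).prod from
          cong_cancel_left ht (prod_mem_N (hvS' _))),
        alt, List.prod_cons, hZ.s_left, sinv_even hZ]
    have h4 : Z (alt s t (2 * j + 2)).prod = Z (rep s t (j + 1)) := by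
      rw [← hsv, hZ.s_left, hv]
    rw [hbase, hsv, act_not_adm ht (prod_mem_N (hvS' _)) hna hZ.toBInv, h3, h4]
    ring
  · obtain ⟨m, hm⟩ := hodd
    have hgon : gon P s t = 2 * j + 3 := by omega
    have hc : Cong P (alt t s (2 * j + 3)).prod (alt s t (2 * j + 3)).prod := by
      have := T.cong_longest
      rwa [hgon] at this
    have h5 : Z (alt t s (2 * j + 3)).prod = Z (rep s t (j + 1)) := by
      rw [hZ.eq_of_cong hc, alt, List.prod_cons, hZ.s_left, sinv_alt hZ,
        show (2 * j + 2 + 1) / 2 = j + 1 by omega]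
    rw [hbase, hup (by omega), h5]
    ring

end Formulas

/-- The candidate eigenfunction. -/
noncomputable def eigFun (P : BNPair G) (t : G) (y : ℕ → ℝ) : G → ℝ := fun g => y (idx P t g)

theorem sinv_eigFun (T : TwoGen P s t) (y : ℕ → ℝ) : SInv P s (eigFun P t y) :=
  ⟨⟨fun b hb g => by simp [eigFun, idx_B_left hb], fun b hb g => by simp [eigFun, idx_B_right hb]⟩,
    fun g => by simp [eigFun, idx_s_left T], fun g => by simp [eigFun, idx_s_right T]⟩

theorem card_cell_alt (T : TwoGen P s t) : ∀ d : ℕ, d ≤ gon P s t →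
    Nat.card (cell P (alt t s d).prod) =
        Nat.card P.B * (degree P s * degree P t) ^ (d / 2) * degree P t ^ (d % 2) ∧
      Nat.card (cell P (alt s t d).prod) =
        Nat.card P.B * (degree P s * degree P t) ^ (d / 2) * degree P s ^ (d % 2) := by
  intro d
  induction d with
  | zero => intro _; simp [alt, cell_one]
  | succ d ih =>
    intro hd
    obtain ⟨h1, h2⟩ := ih (by omega)
    constructor
    · rw [alt, List.prod_cons, card_cell_mul T.mem_right
        (prod_mem_N (alt_word_mem T.mem_right T.mem_left d))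
        ((T.red_alt hd).adm T.mem_right (alt_word_mem T.mem_right T.mem_left d)), h2]
      rcases Nat.even_or_odd' d with ⟨i, rfl | rfl⟩
      · rw [show (2 * i + 1) / 2 = i by omega, show (2 * i + 1) % 2 = 1 by omega,
          show 2 * i / 2 = i by omega, show 2 * i % 2 = 0 by omega]
        ring
      · rw [show (2 * i + 1) / 2 = i by omega, show (2 * i + 1) % 2 = 1 by omega,
          show (2 * i + 1 + 1) / 2 = i + 1 by omega, show (2 * i + 1 + 1) % 2 = 0 by omega]
        ring
    · rw [alt, List.prod_cons, card_cell_mul T.mem_left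
        (prod_mem_N (alt_word_mem T.mem_left T.mem_right d))
        ((T.red_alt' hd).adm T.mem_left (alt_word_mem T.mem_left T.mem_right d)), h1]
      rcases Nat.even_or_odd' d with ⟨i, rfl | rfl⟩
      · rw [show (2 * i + 1) / 2 = i by omega, show (2 * i + 1) % 2 = 1 by omega,
          show 2 * i / 2 = i by omega, show 2 * i % 2 = 0 by omega]
        ring
      · rw [show (2 * i + 1) / 2 = i by omega, show (2 * i + 1) % 2 = 1 by omega,
          show (2 * i + 1 + 1) / 2 = i + 1 by omega, show (2 * i + 1 + 1) % 2 = 0 by omega]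
        ring

theorem degree_eq_of_odd (T : TwoGen P s t) (hodd : Odd (gon P s t)) :
    degree P s = degree P t := by
  obtain ⟨m, hm⟩ := hodd
  have h := card_cell_alt T (2 * m + 1) hm.ge
  have hc := T.cong_longest
  rw [hm] at hc
  have h2 := h.2
  rw [← hc.cell_eq, h.1, show (2 * m + 1) % 2 = 1 by omega, pow_one, pow_one] at h2
  have hpos : 0 < degree P s * degree P t :=
    Nat.mul_pos (lt_of_lt_of_le two_pos (two_le_degree T.mem_left))
      (lt_of_lt_of_le two_pos (two_le_degree T.mem_right))
  exact (Nat.eq_of_mul_eq_mul_left (Nat.mul_pos Nat.card_pos (pow_pos hpos _)) h2).symm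

theorem schur_eq (T : TwoGen P s t) (y : ℕ → ℝ) :
    conv P (eigFun P t y) (eigFun P t y) 1 =
      schur (gon P s t) (degree P s) (degree P t) y := by
  classical
  set n := gon P s t with hndef
  have hY := sinv_eigFun T y
  set F : G → ℝ := fun g => eigFun P t y g ^ 2 with hFdef
  have hcell : ∀ p : Fin n × Bool, (∑ g : G, if g ∈ cell P (cellRep s t p) then F g else 0) =
      Nat.card (cell P (cellRep s t p)) * F (cellRep s t p) := by
    intro p
    rw [Finset.sum_congr rfl (fun g _ => show _ = if g ∈ cell P (cellRep s t p)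
        then F (cellRep s t p) else 0 by
      by_cases hg : g ∈ cell P (cellRep s t p)
      · rw [if_pos hg, if_pos hg, hFdef]; simp only [hY.eq_of_mem hg]
      · rw [if_neg hg, if_neg hg]),
      ← Finset.sum_filter, Finset.sum_const, nsmul_eq_mul, ← Fintype.card_subtype,
      ← Nat.card_eq_fintype_card]
  have hone : ∀ g : G, F g =
      ∑ p : Fin n × Bool, if g ∈ cell P (cellRep s t p) then F g else 0 := by
    intro g
    obtain ⟨p, hp, huniq⟩ := cover T g
    rw [Finset.sum_eq_single p (fun q _ hq => if_neg fun hh => hq (huniq q hh)) (by simp),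
      if_pos hp]
  have htot : ∑ g : G, F g =
      ∑ p : Fin n × Bool, (Nat.card (cell P (cellRep s t p)) : ℝ) * F (cellRep s t p) := by
    rw [Finset.sum_congr rfl (fun g _ => hone g), Finset.sum_comm]
    exact Finset.sum_congr rfl fun p _ => hcell p
  have hd : ∀ d : Fin n, ∑ b : Bool,
      (Nat.card (cell P (cellRep s t (d, b))) : ℝ) * F (cellRep s t (d, b)) =
      (Nat.card P.B : ℝ) * ((1 + (degree P s : ℝ))
        * (cellSize (degree P s) (degree P t) d * y (((d : ℕ) + 1) / 2) ^ 2)) := by
    intro d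
    have hlt := d.isLt
    have hF : F (alt t s d).prod = y (((d : ℕ) + 1) / 2) ^ 2 := by
      rw [hFdef]; simp only [eigFun, idx_alt T hlt]
    rw [Fintype.sum_bool]
    simp only [cellRep, if_true, Bool.false_eq_true, if_false]
    have hFs : F (s * (alt t s d).prod) = F (alt t s d).prod := by
      rw [hFdef]; simp only [hY.s_left]
    rw [hFs, hF, card_cell_mul T.mem_left
      (prod_mem_N (alt_word_mem T.mem_left T.mem_right d))
      ((T.red_alt' (d := d + 1) (by omega)).adm T.mem_left
        (alt_word_mem T.mem_left T.mem_right d)),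
      (card_cell_alt T d hlt.le).1, cellSize]
    push_cast
    ring
  have hconv : conv P (eigFun P t y) (eigFun P t y) 1 = (∑ g : G, F g) / Nat.card P.B := by
    rw [conv]
    congr 1
    refine Finset.sum_congr rfl fun h _ => ?_
    rw [hFdef]
    simp [eigFun, idx_inv, sq]
  rw [hconv, htot, Fintype.sum_prod_type, Finset.sum_congr rfl (fun d _ => hd d), ← Finset.mul_sum,
    mul_div_cancel_left₀ _ (Nat.cast_ne_zero.2 Nat.card_pos.ne'), ← Finset.mul_sum, schur,
    Fin.sum_univ_eq_sum_range (fun d : ℕ => cellSize (degree P s) (degree P t) d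
      * y ((d + 1) / 2) ^ 2) n]

theorem eigFun_rep (T : TwoGen P s t) (y : ℕ → ℝ) {i : ℕ} (hi : i ≤ gon P s t / 2) :
    eigFun P t y (rep s t i) = y i := by simp only [eigFun, idx_rep T hi]

theorem coll_eigFun (T : TwoGen P s t) {x : ℝ} {y : ℕ → ℝ}
    (he : IsEigen (gon P s t) (degree P s : ℝ) (degree P t) x y) :
    coll P s t (eigFun P t y) = fun g => x * eigFun P t y g := by
  have hY := sinv_eigFun T y
  have hxY : SInv P s (fun g => x * eigFun P t y g) :=
    ⟨⟨fun b hb g => by simp only [hY.left b hb], fun b hb g => by simp only [hY.right b hb]⟩,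
      fun g => by simp only [hY.s_left], fun g => by simp only [hY.s_right]⟩
  refine sinv_eq_of_rep T (sinv_coll T hY) hxY fun i hi => ?_
  have hn := T.two_le_gon
  rcases Nat.eq_zero_or_pos i with rfl | h1
  · have h0 : rep s t 0 = 1 := rfl
    rw [h0, coll_rep_zero T hY, eigFun_rep T y (i := 1) (by omega),
      ← h0, eigFun_rep T y (i := 0) (by omega), he.y_zero, he.first]
    ring
  · obtain ⟨hA, hB, hC⟩ := coll_rep T hY h1 hi
    rcases lt_or_eq_of_le hi with hlt | rfl
    · rw [hA hlt, eigFun_rep T y (i := i - 1) (by omega), eigFun_rep T y hi,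
        eigFun_rep T y (i := i + 1) (by omega)]
      linear_combination -(he.inner i h1 hlt)
    · rcases Nat.even_or_odd (gon P s t) with hev | hod
      · rw [hB rfl hev, eigFun_rep T y (i := _ - 1) (by omega), eigFun_rep T y le_rfl]
        linear_combination -(he.last_even hev)
      · rw [hC rfl hod, eigFun_rep T y (i := _ - 1) (by omega), eigFun_rep T y le_rfl]
        linear_combination -(he.last_odd hod)

theorem conv_eigFun (T : TwoGen P s t) {x : ℝ} {y : ℕ → ℝ}
    (he : IsEigen (gon P s t) (degree P s : ℝ) (degree P t) x y) :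
    conv P (eigFun P t y) (eigFun P t y) =
      fun g => conv P (eigFun P t y) (eigFun P t y) 1 * eigFun P t y g := by
  set Y := eigFun P t y with hYdef
  have hY : SInv P s Y := sinv_eigFun T y
  have hYY : SInv P s (conv P Y Y) := by
    refine ⟨conv_binv hY.toBInv hY.toBInv, fun g => ?_, fun g => ?_⟩
    · simp only [conv]
      congr 1
      rw [← Equiv.sum_comp (Equiv.mulLeft s)]
      refine Finset.sum_congr rfl fun h _ => ?_
      simp only [Equiv.coe_mulLeft]
      rw [hY.s_left, show (s * h)⁻¹ * (s * g) = h⁻¹ * g by group]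
    · simp only [conv, ← mul_assoc, hY.s_right]
  set S := conv P Y Y 1 with hSdef
  have hSY : SInv P s (fun g => S * Y g) :=
    ⟨⟨fun b hb g => by simp only [hY.left b hb], fun b hb g => by simp only [hY.right b hb]⟩,
      fun g => by simp only [hY.s_left], fun g => by simp only [hY.s_right]⟩
  have hPhi : coll P s t (conv P Y Y) = fun g => x * conv P Y Y g := by
    rw [coll_conv, hYdef, coll_eigFun T he]
    funext g
    simp only [conv, mul_assoc, ← Finset.mul_sum, mul_div_assoc]
  refine sinv_eq_of_rep T hYY hSY fun i hi => ?_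
  have hn := T.two_le_gon
  have hq : (degree P s : ℝ) ≠ 0 :=
    Nat.cast_ne_zero.2 (by have := two_le_degree (P := P) T.mem_left; omega)
  have hr : (degree P t : ℝ) ≠ 0 :=
    Nat.cast_ne_zero.2 (by have := two_le_degree (P := P) T.mem_right; omega)
  have hq1 : (degree P s : ℝ) + 1 ≠ 0 := by positivity
  have hrep : ∀ i ≤ gon P s t / 2, Y (rep s t i) = y i := fun i hi => eigFun_rep T y hi
  show conv P Y Y (rep s t i) = S * Y (rep s t i)
  rw [hrep i hi]
  induction i using Nat.strong_induction_on with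
  | _ i ih =>
    match i with
    | 0 => rw [he.y_zero, mul_one]; rfl
    | 1 =>
      have h0 := coll_rep_zero T hYY
      rw [congrFun hPhi 1, he.first] at h0
      simp only [← hSdef] at h0
      field_simp at h0
      linear_combination -h0
    | i + 2 =>
      have h0 := (coll_rep T hYY (i := i + 1) (by omega) (by omega)).1 (by omega)
      have hin := he.inner (i + 1) (by omega) (by omega)
      rw [congrFun hPhi] at h0
      simp only [Nat.add_sub_cancel] at h0 hin
      rw [ih i (by omega) (by omega), ih (i + 1) (by omega) (by omega)] at h0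
      apply mul_left_cancel₀ (mul_ne_zero hq hr)
      linear_combination S * hin - h0

theorem schur_rat (T : TwoGen P s t) (x : ℝ) (y : ℕ → ℝ)
    (he : IsEigen (gon P s t) (degree P s : ℝ) (degree P t) x y) :
    ∃ a : ℚ, schur (gon P s t) (degree P s : ℝ) (degree P t) y = a := by
  classical
  rw [← schur_eq T y]
  set Y := eigFun P t y with hYdef
  set S := conv P Y Y 1 with hSdef
  have hY1 : Y 1 = 1 := by
    have := eigFun_rep T y (i := 0) (Nat.zero_le _)
    rw [he.y_zero] at this
    exact this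
  set β : ℝ := (Nat.card P.B : ℝ) with hβdef
  have hβ : 0 < β := Nat.cast_pos.2 Nat.card_pos
  have hS : 0 < S := by
    have : S = (∑ h : G, Y h ^ 2) / β := by
      rw [hSdef, conv]
      congr 1
      refine Finset.sum_congr rfl fun h _ => ?_
      simp [hYdef, eigFun, idx_inv, sq]
    rw [this]
    refine div_pos (Finset.sum_pos' (fun h _ => sq_nonneg _) ⟨1, Finset.mem_univ _, ?_⟩) hβ
    rw [hY1]; norm_num
  set M : Matrix G G ℝ := fun g h => Y (g⁻¹ * h) / (β * S) with hMdef
  have hM : IsIdempotentElem M := by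
    ext g h
    rw [Matrix.mul_apply]
    have hc := congrFun (conv_eigFun T he) (g⁻¹ * h)
    rw [conv, ← Equiv.sum_comp (Equiv.mulLeft g⁻¹)] at hc
    simp only [Equiv.coe_mulLeft] at hc
    have h2 : (∑ k : G, Y (g⁻¹ * k) * Y (k⁻¹ * h)) = β * S * Y (g⁻¹ * h) := by
      have e : ∀ k : G, (g⁻¹ * k)⁻¹ * (g⁻¹ * h) = k⁻¹ * h := fun k => by group
      simp only [e, ← hSdef, ← hYdef, ← hβdef] at hc
      field_simp at hc
      linear_combination hc
    simp only [hMdef, div_mul_div_comm, ← Finset.sum_div, h2]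
    field_simp
  have htr : M.trace = (Fintype.card G : ℝ) / (β * S) := by
    simp only [Matrix.trace, Matrix.diag, hMdef, inv_mul_cancel, hY1, Finset.sum_const,
      Finset.card_univ, nsmul_eq_mul]
    ring
  have hlin : IsIdempotentElem (Matrix.toLin' M) := hM.map (Matrix.toLinAlgEquiv' (R := ℝ) (n := G))
  have hk := (LinearMap.IsIdempotentElem.isProj_range _ hlin).trace
  rw [Matrix.trace_toLin'_eq, htr] at hk
  refine ⟨(Fintype.card G : ℚ)
    / ((Module.finrank ℝ (LinearMap.range (Matrix.toLin' M)) : ℚ) * Nat.card P.B), ?_⟩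
  push_cast
  rw [← hk, ← hβdef]
  have : (Fintype.card G : ℝ) ≠ 0 := Nat.cast_ne_zero.2 Fintype.card_ne_zero
  field_simp

/-- The Feit–Higman theorem for a finite group with a (B, N)-pair of rank two. -/
theorem feit_higman (h2 : P.rank = 2) :
    ((P.B ⊓ P.N).subgroupOf P.N).index ∈ ({4, 6, 8, 12, 16} : Set ℕ) := by
  obtain ⟨s, t, T⟩ := exists_twoGen h2
  rw [T.index_eq]
  rcases gonality_bound T.two_le_gon (two_le_degree T.mem_left) (two_le_degree T.mem_right)
      (degree_eq_of_odd T) (schur_rat T) with h | h | h | h | h <;> simp [h]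

end Cfsg.Agent.H8.FH
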