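import Mathlib

/-!
# The arithmetic part of the Feit–Higman theorem

If for every eigenvalue of the three-term recursion the associated Schur element is rational, then
the gonality lies in `{2, 3, 4, 6, 8}`.
-/

set_option autoImplicit false

namespace Cfsg.Agent.H8.FH

open Real

/-- The size of the Bruhat cell of the alternating word of length `d` starting with `t`. -/
def cellSize (q r : ℝ) (d : ℕ) : ℝ := (q * r) ^ (d / 2) * r ^ (d % 2)

/-- The eigenvector equations of the collinearity matrix of a generalized `n`-gon. -/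
structure IsEigen (n : ℕ) (q r x : ℝ) (y : ℕ → ℝ) : Prop where
  y_zero : y 0 = 1
  first : x = r * (q + 1) * y 1
  inner : ∀ i, 1 ≤ i → i < n / 2 → x * y i = y (i - 1) + (r - 1) * y i + q * r * y (i + 1)
  last_even : Even n → x * y (n / 2) = (1 + q) * (y (n / 2 - 1) + (r - 1) * y (n / 2))
  last_odd : Odd n → x * y (n / 2) = y (n / 2 - 1) + (r - 1 + q * r) * y (n / 2)

/-- The Schur element attached to an eigenvector. -/
noncomputable def schur (n : ℕ) (q r : ℝ) (y : ℕ → ℝ) : ℝ :=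
  (1 + q) * ∑ d ∈ Finset.range n, cellSize q r d * y ((d + 1) / 2) ^ 2

theorem sum_range_two_mul (f : ℕ → ℝ) : ∀ m : ℕ,
    ∑ d ∈ Finset.range (2 * m), f d = ∑ i ∈ Finset.range m, (f (2 * i) + f (2 * i + 1)) := by
  intro m
  induction m with
  | zero => simp
  | succ m ih =>
    rw [show 2 * (m + 1) = 2 * m + 1 + 1 by omega, Finset.sum_range_succ, Finset.sum_range_succ,
      Finset.sum_range_succ, ih]
    ring

theorem two_sin_mul_sum_cos (θ : ℝ) : ∀ m : ℕ,
    2 * sin θ * ∑ i ∈ Finset.range m, cos (2 * i * θ) = sin ((2 * m - 1) * θ) + sin θ := by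
  intro m
  induction m with
  | zero => simp
  | succ m ih =>
    rw [Finset.sum_range_succ, mul_add, ih]
    push_cast
    rw [show (2 * ((m : ℝ) + 1) - 1) * θ = 2 * m * θ + θ by ring,
      show (2 * (m : ℝ) - 1) * θ = 2 * m * θ - θ by ring, sin_add, sin_sub]
    ring

theorem two_sin_mul_sum_sin (θ : ℝ) : ∀ m : ℕ,
    2 * sin θ * ∑ i ∈ Finset.range m, sin (2 * i * θ) = cos θ - cos ((2 * m - 1) * θ) := by
  intro m
  induction m with
  | zero => simp
  | succ m ih =>
    rw [Finset.sum_range_succ, mul_add, ih]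
    push_cast
    rw [show (2 * ((m : ℝ) + 1) - 1) * θ = 2 * m * θ + θ by ring,
      show (2 * (m : ℝ) - 1) * θ = 2 * m * θ - θ by ring, cos_add, cos_sub]
    ring

/-- The trigonometric solution of `z (i+1) + z (i-1) = 2 cos θ * z i`. -/
noncomputable def zSeq (θ β : ℝ) (i : ℕ) : ℝ := cos (i * θ) + β * sin (i * θ)

theorem zSeq_rec (θ β : ℝ) (i : ℕ) :
    zSeq θ β (i + 2) + zSeq θ β i = 2 * cos θ * zSeq θ β (i + 1) := by
  simp only [zSeq]
  push_cast
  rw [show ((i : ℝ) + 2) * θ = ((i : ℝ) + 1) * θ + θ by ring,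
    show (i : ℝ) * θ = ((i : ℝ) + 1) * θ - θ by ring, cos_add, cos_sub, sin_add, sin_sub]
  ring

theorem zSeq_sq_sum (θ β : ℝ) (m : ℕ) :
    ∑ i ∈ Finset.range m, zSeq θ β i ^ 2 = (m : ℝ) / 2 * (1 + β ^ 2)
      + (1 - β ^ 2) / 2 * ∑ i ∈ Finset.range m, cos (2 * i * θ)
      + β * ∑ i ∈ Finset.range m, sin (2 * i * θ) := by
  induction m with
  | zero => simp
  | succ m ih =>
    rw [Finset.sum_range_succ, Finset.sum_range_succ, Finset.sum_range_succ, ih, zSeq,
      show 2 * (m : ℝ) * θ = 2 * ((m : ℝ) * θ) by ring, cos_two_mul, sin_two_mul]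
    have h := sin_sq_add_cos_sq ((m : ℝ) * θ)
    push_cast
    linear_combination (β ^ 2) * h

section Scaled

variable {q r k : ℝ}

theorem cellSize_mul_sq_even (hk : k ≠ 0) (hk2 : k ^ 2 = q * r) (z : ℕ → ℝ) (i : ℕ) :
    cellSize q r (2 * i) * (z i / k ^ i) ^ 2 = z i ^ 2 := by
  rw [cellSize, show 2 * i / 2 = i by omega, show 2 * i % 2 = 0 by omega, ← hk2, div_pow]
  field_simp
  ring

theorem cellSize_mul_sq_odd (hk : k ≠ 0) (hk2 : k ^ 2 = q * r) (hq : q ≠ 0) (z : ℕ → ℝ) (i : ℕ) :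
    cellSize q r (2 * i + 1) * (z (i + 1) / k ^ (i + 1)) ^ 2 = z (i + 1) ^ 2 / q := by
  have hr : r = k ^ 2 / q := by rw [hk2]; field_simp
  rw [cellSize, show (2 * i + 1) / 2 = i by omega, show (2 * i + 1) % 2 = 1 by omega, ← hk2, hr,
    div_pow]
  field_simp
  ring

end Scaled

/-- The even case: the Schur element at the eigenvalue `r - 1 + 2 √(q r) cos θ`. -/
theorem even_eigen {m : ℕ} {q r : ℝ} (hq : 0 < q) (hr : 0 < r) (hm : 1 ≤ m) {θ : ℝ}
    (hs : sin θ ≠ 0) (hsm : sin (m * θ) = 0) :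
    ∃ x y, IsEigen (2 * m) q r x y ∧ schur (2 * m) q r y * (sin θ ^ 2) =
      m / 2 * ((q + r + 2 * (√(q * r) * cos θ)) * (q * r + 1 - 2 * (√(q * r) * cos θ))) /
        (q * r) := by
  set k := √(q * r) with hkdef
  have hk : 0 < k := Real.sqrt_pos.2 (mul_pos hq hr)
  have hk2 : k ^ 2 = q * r := Real.sq_sqrt (mul_pos hq hr).le
  set c := cos θ with hcdef
  set x := r - 1 + 2 * k * c with hxdef
  set z1 := k * x / (r * (q + 1)) with hz1def
  set β := (z1 - c) / sin θ with hβdef
  set z := zSeq θ β with hzdef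
  have hz0 : z 0 = 1 := by simp [hzdef, zSeq]
  have hz1 : z 1 = z1 := by
    simp only [hzdef, zSeq, Nat.cast_one, one_mul, hβdef]
    field_simp
    ring
  have hzm : z m = cos (m * θ) := by simp [hzdef, zSeq, hsm]
  have hε : cos (m * θ) ^ 2 = 1 := by
    have := sin_sq_add_cos_sq ((m : ℝ) * θ); rw [hsm] at this; linarith
  have hzm1 : z (m - 1) = cos (m * θ) * (2 * c - z1) := by
    rw [← hz1]
    simp only [hzdef, zSeq, Nat.cast_one, one_mul, Nat.cast_sub hm]
    rw [show ((m : ℝ) - 1) * θ = m * θ - θ by ring, cos_sub, sin_sub, hsm]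
    ring
  refine ⟨x, fun i => z i / k ^ i, ⟨by simp [hz0], ?_, ?_, ?_, ?_⟩, ?_⟩
  · rw [hz1, hz1def]
    field_simp
  · intro i h1 h2
    obtain ⟨j, rfl⟩ : ∃ j, i = j + 1 := ⟨i - 1, by omega⟩
    have h := zSeq_rec θ β j
    rw [← hzdef] at h
    simp only [Nat.add_sub_cancel]
    rw [hxdef, ← hk2, pow_succ, pow_succ, pow_succ]
    field_simp
    linear_combination (-(k ^ 3 * k ^ j)) * h
  · intro _
    rw [show 2 * m / 2 = m by omega, hzm, hzm1]
    obtain ⟨j, rfl⟩ : ∃ j, m = j + 1 := ⟨m - 1, by omega⟩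
    simp only [Nat.add_sub_cancel]
    rw [hz1def, pow_succ]
    field_simp
    rw [hxdef]
    linear_combination (norm := ring_nf) (1 + q) * 0 * hk2
      + (cos (((j + 1 : ℕ) : ℝ) * θ) * (r - 1 + 2 * k * c) * (q + 1)) * hk2
  · intro hodd
    obtain ⟨j, hj⟩ := hodd
    omega
  · have hsumc : ∑ i ∈ Finset.range m, cos (2 * i * θ) = 0 := by
      have h := two_sin_mul_sum_cos θ m
      rw [show (2 * (m : ℝ) - 1) * θ = m * θ + m * θ - θ by ring, sin_sub, sin_add, cos_add,
        hsm] at h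
      have h' : 2 * sin θ * ∑ i ∈ Finset.range m, cos (2 * i * θ) = 0 := by
        linear_combination h + (-sin θ) * hε
      exact (mul_eq_zero.1 h').resolve_left (by simpa using hs)
    have hsums : ∑ i ∈ Finset.range m, sin (2 * i * θ) = 0 := by
      have h := two_sin_mul_sum_sin θ m
      rw [show (2 * (m : ℝ) - 1) * θ = m * θ + m * θ - θ by ring, cos_sub, sin_add, cos_add,
        hsm] at h
      have h' : 2 * sin θ * ∑ i ∈ Finset.range m, sin (2 * i * θ) = 0 := by
        linear_combination h + (-cos θ) * hε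
      exact (mul_eq_zero.1 h').resolve_left (by simpa using hs)
    have hshift : ∑ i ∈ Finset.range m, z (i + 1) ^ 2 = ∑ i ∈ Finset.range m, z i ^ 2 := by
      have h1 := Finset.sum_range_succ (fun i => z i ^ 2) m
      have h2 := Finset.sum_range_succ' (fun i => z i ^ 2) m
      simp only [hz0, hzm, hε, one_pow] at h1 h2
      linarith
    have hS : schur (2 * m) q r (fun i => z i / k ^ i)
        = (1 + q) * ((1 + 1 / q) * ((m : ℝ) / 2 * (1 + β ^ 2))) := by
      rw [schur, sum_range_two_mul]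
      congr 1
      rw [Finset.sum_congr rfl (fun i _ => show _ = z i ^ 2 + z (i + 1) ^ 2 / q by
        rw [show (2 * i + 1) / 2 = i by omega, show (2 * i + 1 + 1) / 2 = i + 1 by omega,
          cellSize_mul_sq_even hk.ne' hk2, cellSize_mul_sq_odd hk.ne' hk2 hq.ne']),
        Finset.sum_add_distrib, ← Finset.sum_div, hshift, hzdef, zSeq_sq_sum, hsumc, hsums]
      ring
    rw [hS, hβdef, hz1def, hxdef]
    have hs2 : sin θ ^ 2 = 1 - c ^ 2 := sin_sq θ
    field_simp
    grind

/-- The odd case. -/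
theorem odd_eigen {m : ℕ} {q : ℝ} (hq : 0 < q) (hm : 1 ≤ m) :
    ∃ x y, IsEigen (2 * m + 1) q q x y ∧ schur (2 * m + 1) q q y
      * (1 - cos (2 * π / (2 * m + 1))) =
      (2 * m + 1 : ℝ) / (4 * q) * ((q + 1) ^ 2 * (1 - cos (2 * π / (2 * m + 1)))
        + (q - 1) ^ 2 * (1 + cos (2 * π / (2 * m + 1)))) := by
  set h := π / (2 * m + 1) with hhdef
  have hθ : 2 * π / (2 * m + 1) = 2 * h := by rw [hhdef]; ring
  rw [hθ]
  set c := cos (2 * h) with hcdef
  have hmpos : (0 : ℝ) < 2 * m + 1 := by positivity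
  have hmh : (2 * (m : ℝ) + 1) * h = π := by rw [hhdef]; field_simp
  have hh0 : 0 < h := by positivity
  have hm1 : (1 : ℝ) ≤ m := by exact_mod_cast hm
  have hhlt : 2 * h < π := by nlinarith
  have hs : sin h ≠ 0 := (sin_pos_of_pos_of_lt_pi hh0 (by linarith)).ne'
  set β := (q - 1) * cos h / ((q + 1) * sin h) with hβdef
  set z := zSeq (2 * h) β with hzdef
  set x := q - 1 + 2 * q * c with hxdef
  have hc : c = 2 * cos h ^ 2 - 1 := by rw [hcdef, cos_two_mul]
  have hz0 : z 0 = 1 := by simp [hzdef, zSeq]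
  have hz1 : z 1 = x / (q + 1) := by
    simp only [hzdef, zSeq, Nat.cast_one, one_mul, hβdef, hxdef]
    rw [sin_two_mul, ← hcdef, hc]
    field_simp
    ring
  have hzm : z m = -cos h + β * sin h := by
    simp only [hzdef, zSeq]
    rw [show (m : ℝ) * (2 * h) = π - h by linarith, cos_pi_sub, sin_pi_sub]
  have hzm1 : z (m + 1) = -cos h - β * sin h := by
    simp only [hzdef, zSeq]
    push_cast
    rw [show ((m : ℝ) + 1) * (2 * h) = h + π by linarith, cos_add_pi, sin_add_pi]
    ring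
  have hend : z (m + 1) = q * z m := by
    rw [hzm, hzm1, hβdef]
    field_simp
    ring
  refine ⟨x, fun i => z i / q ^ i, ⟨by simp [hz0], ?_, ?_, ?_, ?_⟩, ?_⟩
  · rw [hz1]
    field_simp
  · intro i h1 h2
    obtain ⟨j, rfl⟩ : ∃ j, i = j + 1 := ⟨i - 1, by omega⟩
    have h := zSeq_rec (2 * h) β j
    rw [← hzdef] at h
    simp only [Nat.add_sub_cancel]
    rw [hxdef, pow_succ, pow_succ, pow_succ]
    field_simp
    linear_combination (-q) * h
  · intro heven
    obtain ⟨j, hj⟩ := heven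
    omega
  · intro _
    rw [show (2 * m + 1) / 2 = m by omega]
    obtain ⟨j, rfl⟩ : ∃ j, m = j + 1 := ⟨m - 1, by omega⟩
    have h := zSeq_rec (2 * h) β j
    rw [← hzdef, ← hcdef] at h
    simp only [Nat.add_sub_cancel]
    rw [hxdef, pow_succ]
    field_simp
    linear_combination (-q) * h + q * hend
  · have hk2 : q ^ 2 = q * q := sq q
    have hS0 : ∑ i ∈ Finset.range (m + 1), z i ^ 2 =
        (2 * m + 1 : ℝ) / 4 * (1 + β ^ 2) + 1 / (q + 1) := by
      rw [hzdef, zSeq_sq_sum]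
      have e1 := two_sin_mul_sum_cos (2 * h) (m + 1)
      have e2 := two_sin_mul_sum_sin (2 * h) (m + 1)
      push_cast at e1 e2 ⊢
      rw [show (2 * ((m : ℝ) + 1) - 1) * (2 * h) = 2 * π by linarith, sin_two_pi] at e1
      rw [show (2 * ((m : ℝ) + 1) - 1) * (2 * h) = 2 * π by linarith, cos_two_pi, ← hcdef] at e2
      have hs2 : sin (2 * h) ≠ 0 := (sin_pos_of_pos_of_lt_pi (by linarith) hhlt).ne'
      have f1 : ∑ i ∈ Finset.range (m + 1), cos (2 * i * (2 * h)) = 1 / 2 := by
        apply mul_left_cancel₀ (mul_ne_zero two_ne_zero hs2)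
        rw [e1]; ring
      rw [f1]
      have f2 : β * ∑ i ∈ Finset.range (m + 1), sin (2 * i * (2 * h))
          = -(q - 1) / (2 * (q + 1)) := by
        apply mul_left_cancel₀ (mul_ne_zero two_ne_zero hs2)
        rw [mul_left_comm, e2, hβdef, sin_two_mul, hc]
        have := sin_sq_add_cos_sq h
        field_simp
        grind
      rw [f2]
      field_simp
      ring
    have hshift : ∑ i ∈ Finset.range m, z (i + 1) ^ 2
        = (∑ i ∈ Finset.range (m + 1), z i ^ 2) - 1 := by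
      rw [Finset.sum_range_succ' _ m, hz0]; ring
    have hS : schur (2 * m + 1) q q (fun i => z i / q ^ i)
        = (1 + q) * ((1 + 1 / q) * ((2 * m + 1 : ℝ) / 4 * (1 + β ^ 2))) := by
      rw [schur, Finset.sum_range_succ, sum_range_two_mul]
      congr 1
      rw [show (2 * m + 1) / 2 = m by omega, cellSize_mul_sq_even hq.ne' hk2,
        Finset.sum_congr rfl (fun i _ => show _ = z i ^ 2 + z (i + 1) ^ 2 / q by
        rw [show (2 * i + 1) / 2 = i by omega, show (2 * i + 1 + 1) / 2 = i + 1 by omega,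
          cellSize_mul_sq_even hq.ne' hk2, cellSize_mul_sq_odd hq.ne' hk2 hq.ne']),
        Finset.sum_add_distrib, ← Finset.sum_div, hshift]
      rw [Finset.sum_range_succ] at hS0 ⊢
      field_simp at hS0 ⊢
      grind
    rw [hS, hβdef, hc]
    field_simp
    rw [sin_sq h]
    ring

end Cfsg.Agent.H8.FH
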